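-- Team project BRA (S4484), package [Mult] (helper80): eigenvalue multiplicities.
import Cfsg.Agent.Lib.Helper95.BRA.Defs
import Cfsg.Agent.Lib.Helper80.SchurBound

set_option autoImplicit false

open scoped Matrix ComplexConjugate

namespace Cfsg.Agent.Lib.Helper80.BRA

open Cfsg Cfsg.Agent.Lib.Helper74.Jordan Cfsg.Agent.Lib.Helper95.BRA

universe u

/-- [Mult] eigenvalue multiplicities of an element of order `p`. -/
theorem pkgMult : PkgMult.{u} := by
  intro G _ _ χ hχ p z hp hz
  obtain ⟨ι, hι, d, -, hd, hsum⟩ :=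
    Cfsg.Agent.Lib.Helper80.exists_eigen_powersum hχ z
  rw [hz] at hd
  have hp0 : p ≠ 0 := hp.ne_zero
  have hprim := rt_prim hp0
  have hne : NeZero p := ⟨hp0⟩
  have hex : ∀ t : ι, ∃ i, i < p ∧ rt p ^ i = d t :=
    fun t => hprim.eq_pow_of_pow_eq_one (hd t)
  choose idx hidx1 hidx2 using hex
  classical
  refine ⟨fun i => (Finset.univ.filter (fun t => idx t = i)).card, ?_⟩
  intro l
  rw [hsum l, ← Finset.sum_fiberwise_of_maps_to (s := Finset.univ) (t := Finset.range p)
    (g := idx) (fun t _ => Finset.mem_range.mpr (hidx1 t))]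
  apply Finset.sum_congr rfl
  intro i _
  have h1 : ∀ t ∈ Finset.univ.filter (fun t => idx t = i), d t ^ l = rt p ^ (i * l) := by
    intro t ht
    rw [Finset.mem_filter] at ht
    rw [← hidx2 t, ht.2, pow_mul]
  rw [Finset.sum_congr rfl h1, Finset.sum_const, nsmul_eq_mul]

end Cfsg.Agent.Lib.Helper80.BRA
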